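import Cfsg.Agent.SOLV.HallSystem

/-!
Carter subgroups of finite solvable groups.
-/

set_option autoImplicit false
open Pointwise Cfsg

universe u

namespace CL

variable {G G' : Type*} [Group G] [Group G']

theorem isNilpotent_of_injective_hom [Group.IsNilpotent G'] (f : G →* G')
    (hf : Function.Injective f) : Group.IsNilpotent G :=
  Group.nilpotent_of_mulEquiv (MonoidHom.ofInjective hf).symm

theorem IsCarterSubgroup.conj_smul {C : Subgroup G} (h : IsCarterSubgroup C) (g : G) :
    IsCarterSubgroup (MulAut.conj g • C) :=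
  ⟨haveI := h.1; isNilpotent_map C _, by rw [normalizer_conj_smul, h.2]⟩

theorem IsCarterSubgroup.subgroupOf {C U : Subgroup G} (h : IsCarterSubgroup C) (hCU : C ≤ U) :
    IsCarterSubgroup (C.subgroupOf U) :=
  ⟨isNilpotent_subgroupOf h.1 U, by rw [← Subgroup.subgroupOf_normalizer_eq hCU, h.2]⟩

theorem IsCarterSubgroup.eq_of_le {C D : Subgroup G} (h : IsCarterSubgroup C) (hCD : C ≤ D)
    (hD : Group.IsNilpotent D) : C = D := by
  by_contra hne
  have := lt_normalizer_inf_of_isNilpotent hD (lt_of_le_of_ne hCD hne)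
  rw [h.2] at this
  exact this.not_ge inf_le_left

theorem IsCarterSubgroup.eq_top {C : Subgroup G} (h : IsCarterSubgroup C)
    (hG : Group.IsNilpotent G) : C = ⊤ :=
  IsCarterSubgroup.eq_of_le h le_top (Group.isNilpotent_top.mpr hG)

theorem isCarterSubgroup_top (hG : Group.IsNilpotent G) : IsCarterSubgroup (⊤ : Subgroup G) :=
  ⟨Group.isNilpotent_top.mpr hG, Subgroup.normalizer_eq_top _⟩

theorem exists_conj_eq_of_subgroupOf {C D U : Subgroup G} (hC : C ≤ U) (hD : D ≤ U) {g : U}
    (h : MulAut.conj g • C.subgroupOf U = D.subgroupOf U) : MulAut.conj (g : G) • C = D := by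
  have := congrArg (Subgroup.map U.subtype) h
  rwa [map_conj_smul, Subgroup.map_subgroupOf_eq_of_le hC,
    Subgroup.map_subgroupOf_eq_of_le hD] at this

theorem IsCarterSubgroup.normalizer_eq_of_conj {C U : Subgroup G} (h : IsCarterSubgroup C)
    (hCU : C ≤ U) (hU : ∀ C D : Subgroup U, IsCarterSubgroup C → IsCarterSubgroup D →
      ∃ g : U, MulAut.conj g • C = D) : Subgroup.normalizer (U : Set G) = U := by
  refine le_antisymm (fun x hx => ?_) Subgroup.le_normalizer
  have h1 := conj_smul_le_of_mem_normalizer hCU hx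
  obtain ⟨g, hg⟩ := hU _ _ (IsCarterSubgroup.subgroupOf (IsCarterSubgroup.conj_smul h x) h1)
    (IsCarterSubgroup.subgroupOf h hCU)
  have h2 := exists_conj_eq_of_subgroupOf h1 hCU hg
  rw [conj_smul_conj_smul, conj_smul_eq_iff_mem_normalizer, h.2] at h2
  exact (U.mul_mem_cancel_left g.2).mp (hCU h2)

theorem isCarterSubgroup_map_mk' {C N : Subgroup G} [N.Normal] (h : Group.IsNilpotent C)
    (hn : Subgroup.normalizer ((C ⊔ N : Subgroup G) : Set G) = C ⊔ N) :
    IsCarterSubgroup (C.map (QuotientGroup.mk' N)) := by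
  refine ⟨isNilpotent_map C _, Subgroup.comap_injective (QuotientGroup.mk'_surjective N) ?_⟩
  rw [Subgroup.comap_normalizer_eq_of_surjective _ (QuotientGroup.mk'_surjective N), comap_map_mk',
    hn]

/-- Let `G = C N` with `N` a minimal normal `p`-subgroup, and let `R` be a Hall `p'`-subgroup of `G`
normalized by `C`. Then `R` is normal or `C = N_G(R)`. -/
theorem normal_or_normalizer_eq [Finite G] {N C R : Subgroup G}
    (hN : IsMinNormal N) (hs : Group.IsSolvable N) (hCN : C ⊔ N = ⊤)
    (hC : C ≤ Subgroup.normalizer (R : Set G)) : R.Normal ∨ Subgroup.normalizer (R : Set G) = C := by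
  have := hN.normal
  have := hN.isMulCommutative_of_isSolvable hs
  have h1 : N ⊔ Subgroup.normalizer (R : Set G) = ⊤ :=
    eq_top_iff.mpr (hCN.ge.trans (sup_le (hC.trans le_sup_right) le_sup_left))
  rcases hN.eq_bot_or_eq _ (inf_normal_of_sup_eq_top_of_comm h1) inf_le_left with h | h
  · right
    have h2 := sup_inf_assoc_of_le_of_le_normalizer (K := N) hC
      (Or.inl (by rw [Subgroup.normalizer_eq_top]; exact le_top))
    rwa [hCN, top_inf_eq, h, sup_bot_eq] at h2
  · left
    rwa [sup_of_le_right (h.ge.trans inf_le_right), Subgroup.normalizer_eq_top_iff] at h1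

theorem isNilpotent_of_normal_isPiHall [Finite G] {p : ℕ} [Fact p.Prime] {N R : Subgroup G}
    [N.Normal] [R.Normal] (hN : IsPGroup p N) (hR : IsPiHall {p}ᶜ R)
    (hq : Group.IsNilpotent (G ⧸ N)) : Group.IsNilpotent G := by
  have h1 : IsPGroup p (G ⧸ R) := isPGroup_iff_isPiNum.mpr (IsPiHall.isPiNum_index_of_compl hR)
  have := h1.isNilpotent
  refine isNilpotent_of_injective_hom ((QuotientGroup.mk' N).prod (QuotientGroup.mk' R)) ?_
  rw [← MonoidHom.ker_eq_bot_iff, MonoidHom.ker_prod, QuotientGroup.ker_mk', QuotientGroup.ker_mk']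
  exact (Subgroup.disjoint_of_coprime_natCard
    ((isPGroup_iff_isPiNum.mp hN).coprime (isPiHall_iff.mp hR).1)).eq_bot

theorem isNilpotent_quotient_of_sup_eq_top {C N : Subgroup G} [N.Normal] (h : Group.IsNilpotent C)
    (hCN : C ⊔ N = ⊤) : Group.IsNilpotent (G ⧸ N) := by
  have := isNilpotent_map C (QuotientGroup.mk' N)
  rwa [← map_comap_mk' N (C.map _), comap_map_mk', hCN,
    Subgroup.map_top_of_surjective _ (QuotientGroup.mk'_surjective N), Group.isNilpotent_top] at this

theorem IsPiHallOf.le_normalizer_of_isNilpotent {π : Set ℕ} {R C : Subgroup G} [Finite C]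
    (h : IsPiHallOf π R C) (hC : Group.IsNilpotent C) : C ≤ Subgroup.normalizer (R : Set G) := by
  have h1 := IsPiHallOf.subgroupOf h
  rw [← Subgroup.normal_subgroupOf_iff_le_normalizer h.1, le_antisymm (le_piCore_of_isNilpotent
    (isPiHall_iff.mp h1).1) (IsPiHall.piCore_le h1)]
  infer_instance

/-- If `G = C N` with `C` a Carter subgroup and `N` a minimal normal `p`-subgroup, then `G = C` or
`C` is the normalizer of its Hall `p'`-subgroup, which is a Hall subgroup of `G`. -/
theorem IsCarterSubgroup.eq_top_or [Finite G] {p : ℕ} [Fact p.Prime] {N C R : Subgroup G}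
    (hC : IsCarterSubgroup C) (hN : IsMinNormal N) (hp : IsPGroup p N) (hCN : C ⊔ N = ⊤)
    (hR : IsPiHallOf {p}ᶜ R C) :
    IsPiHall {p}ᶜ R ∧ (Group.IsNilpotent G ∨ Subgroup.normalizer (R : Set G) = C) := by
  have := hN.normal
  have h1 : IsPiHall {p}ᶜ R := by
    refine IsPiHallOf.isPiHall hR ?_
    rw [compl_compl, ← Subgroup.relIndex_top_right, ← hCN]
    have h2 := card_sup_dvd_mul C N
    rw [← card_mul_relIndex_of_le (le_sup_left : C ≤ C ⊔ N)] at h2
    exact (isPGroup_iff_isPiNum.mp hp).of_dvd (Nat.dvd_of_mul_dvd_mul_left Nat.card_pos h2)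
  refine ⟨h1, (normal_or_normalizer_eq hN (isSolvable_of_isPGroup hp) hCN
    (IsPiHallOf.le_normalizer_of_isNilpotent hR hC.1)).imp_left fun (hRn : R.Normal) => ?_⟩
  exact isNilpotent_of_normal_isPiHall hp h1 (isNilpotent_quotient_of_sup_eq_top hC.1 hCN)

/-- Carter subgroups of a finite solvable group are conjugate. -/
theorem IsCarterSubgroup.exists_conj_eq {G : Type u} [Group G] [Finite G] [Group.IsSolvable G]
    {C D : Subgroup G} (hC : IsCarterSubgroup C) (hD : IsCarterSubgroup D) :
    ∃ g : G, MulAut.conj g • C = D := by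
  induction hn : Nat.card G using Nat.strong_induction_on generalizing G with | _ n ih =>
  subst hn
  rcases subsingleton_or_nontrivial G with _ | _
  · exact ⟨1, Subsingleton.elim _ _⟩
  obtain ⟨N, p, hN, hp, -, hNp⟩ := exists_isMinNormal_isElementaryAbelian G
  have := hN.normal
  have := Fact.mk hp
  have hq : ∀ C : Subgroup G, IsCarterSubgroup C →
      IsCarterSubgroup (C.map (QuotientGroup.mk' N)) := fun C hC => by
    refine isCarterSubgroup_map_mk' hC.1 ?_
    by_cases h : C ⊔ N = ⊤
    · rw [h]; exact Subgroup.normalizer_eq_top _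
    · exact IsCarterSubgroup.normalizer_eq_of_conj hC le_sup_left fun _ _ h1 h2 =>
        ih _ (card_lt_of_ne_top h) h1 h2 rfl
  obtain ⟨y, hy⟩ := ih _ (card_quotient_lt hN.ne_bot) (hq C hC) (hq D hD) rfl
  obtain ⟨x, rfl⟩ := QuotientGroup.mk'_surjective N y
  have h1 := congrArg (Subgroup.comap (QuotientGroup.mk' N)) hy
  rw [← map_conj_smul, comap_map_mk', comap_map_mk'] at h1
  have hC' := IsCarterSubgroup.conj_smul hC x
  suffices ∃ g : G, MulAut.conj g • (MulAut.conj x • C) = D by
    obtain ⟨g, hg⟩ := this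
    exact ⟨g * x, by rw [← conj_smul_conj_smul, hg]⟩
  generalize MulAut.conj x • C = E at h1 hC'
  by_cases h : D ⊔ N = ⊤
  · obtain ⟨R, hR⟩ := exists_isPiHallOf {p}ᶜ E inferInstance
    obtain ⟨S, hS⟩ := exists_isPiHallOf {p}ᶜ D inferInstance
    obtain ⟨h2, h3 | h3⟩ := IsCarterSubgroup.eq_top_or hC' hN hNp (h1.trans h) hR
    · exact ⟨1, by rw [conj_one_smul, IsCarterSubgroup.eq_top hC' h3, IsCarterSubgroup.eq_top hD h3]⟩
    obtain ⟨h4, h5 | h5⟩ := IsCarterSubgroup.eq_top_or hD hN hNp h hS
    · exact ⟨1, by rw [conj_one_smul, IsCarterSubgroup.eq_top hC' h5, IsCarterSubgroup.eq_top hD h5]⟩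
    obtain ⟨g, hg⟩ := IsPiHall.exists_conj_eq h2 h4
    exact ⟨g, by rw [← h3, ← h5, ← hg, normalizer_conj_smul]⟩
  · have hE : E ≤ D ⊔ N := h1 ▸ le_sup_left
    obtain ⟨g, hg⟩ := ih _ (card_lt_of_ne_top h) (IsCarterSubgroup.subgroupOf hC' hE)
      (IsCarterSubgroup.subgroupOf hD le_sup_left) rfl
    exact ⟨g, exists_conj_eq_of_subgroupOf hE le_sup_left hg⟩

/-- Every solvable overgroup of a Carter subgroup is self-normalizing. -/
theorem IsCarterSubgroup.normalizer_eq_of_le {C U : Subgroup G} [Finite U]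
    (h : IsCarterSubgroup C) (hCU : C ≤ U) (hU : Group.IsSolvable U) :
    Subgroup.normalizer (U : Set G) = U :=
  IsCarterSubgroup.normalizer_eq_of_conj h hCU fun _ _ => IsCarterSubgroup.exists_conj_eq

theorem IsCarterSubgroup.map_mk' [Finite G] [Group.IsSolvable G] {C : Subgroup G}
    (h : IsCarterSubgroup C) (N : Subgroup G) [N.Normal] :
    IsCarterSubgroup (C.map (QuotientGroup.mk' N)) :=
  isCarterSubgroup_map_mk' h.1 (IsCarterSubgroup.normalizer_eq_of_le h le_sup_left inferInstance)

theorem IsCarterSubgroup.sup_eq_top [Finite G] [Group.IsSolvable G] {C : Subgroup G}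
    (h : IsCarterSubgroup C) (N : Subgroup G) [N.Normal] (hq : Group.IsNilpotent (G ⧸ N)) :
    C ⊔ N = ⊤ := by
  rw [← comap_map_mk', IsCarterSubgroup.eq_top (IsCarterSubgroup.map_mk' h N) hq, Subgroup.comap_top]

/-- A finite solvable group has a Carter subgroup. -/
theorem exists_isCarterSubgroup (G : Type u) [Group G] [Finite G] [Group.IsSolvable G] :
    ∃ C : Subgroup G, IsCarterSubgroup C := by
  induction hn : Nat.card G using Nat.strong_induction_on generalizing G with | _ n ih =>
  subst hn
  by_cases hG : Group.IsNilpotent G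
  · exact ⟨⊤, isCarterSubgroup_top hG⟩
  rcases subsingleton_or_nontrivial G with _ | _
  · exact (hG inferInstance).elim
  obtain ⟨N, p, hN, hp, -, hNp⟩ := exists_isMinNormal_isElementaryAbelian G
  have := hN.normal
  have := Fact.mk hp
  obtain ⟨D, hD⟩ := ih _ (card_quotient_lt hN.ne_bot) (G ⧸ N) rfl
  set K := D.comap (QuotientGroup.mk' N) with hK
  have hNK : N ≤ K := le_comap_mk' N D
  by_cases h : K = ⊤
  · have hq : Group.IsNilpotent (G ⧸ N) := by
      have := hD.1
      rwa [← map_comap_mk' N D, ← hK, h, Subgroup.map_top_of_surjective _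
        (QuotientGroup.mk'_surjective N), Group.isNilpotent_top] at this
    obtain ⟨R, hR⟩ := exists_isPiHall {p}ᶜ G
    have h1 : (R ⊔ N).Normal := by
      have h2 := IsPiHall.map hR (QuotientGroup.mk'_surjective N)
      rw [← comap_map_mk', le_antisymm (le_piCore_of_isNilpotent (isPiHall_iff.mp h2).1)
        (IsPiHall.piCore_le h2)]
      infer_instance
    have h2 := IsPiHallOf.frattini_top (L := R ⊔ N) inferInstance (IsPiHall.isPiHallOf hR le_sup_left)
    rw [sup_comm R, sup_assoc, sup_of_le_right Subgroup.le_normalizer] at h2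
    have := hN.isMulCommutative_of_isSolvable inferInstance
    rcases hN.eq_bot_or_eq _ (inf_normal_of_sup_eq_top_of_comm h2) inf_le_left with h3 | h3
    · have h4 : Group.IsNilpotent (Subgroup.normalizer (R : Set G)) := by
        refine isNilpotent_of_injective_hom ((QuotientGroup.mk' N).comp (Subgroup.subtype _)) ?_
        rw [← MonoidHom.ker_eq_bot_iff, ← MonoidHom.comap_ker, QuotientGroup.ker_mk',
          Subgroup.comap_subtype, Subgroup.subgroupOf_eq_bot, disjoint_iff, h3]
      refine ⟨_, h4, le_antisymm ?_ Subgroup.le_normalizer⟩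
      have h5 := normalizer_le_normalizer_map_subtype _
        (piCore {p}ᶜ (Subgroup.normalizer (R : Set G)))
      rwa [← IsPiHallOf.eq_map_piCore (IsPiHall.isPiHallOf hR Subgroup.le_normalizer) le_rfl] at h5
    · rw [sup_of_le_right (h3.ge.trans inf_le_right), Subgroup.normalizer_eq_top_iff] at h2
      exact (hG (isNilpotent_of_normal_isPiHall hNp hR hq)).elim
  · obtain ⟨C, hC⟩ := ih _ (card_lt_of_ne_top h) K rfl
    have h1 : C ⊔ N.subgroupOf K = ⊤ := IsCarterSubgroup.sup_eq_top hC _
      ((Group.isNilpotent_congr (quotientSubgroupOfEquivMap K N)).mpr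
        (by rw [hK, map_comap_mk']; exact hD.1))
    have h2 := congrArg (Subgroup.map K.subtype) h1
    rw [Subgroup.map_sup, Subgroup.map_subgroupOf_eq_of_le hNK, ← MonoidHom.range_eq_map,
      Subgroup.range_subtype] at h2
    have h3 : Subgroup.normalizer ((C.map K.subtype : Subgroup G) : Set G) ≤ K := by
      have h4 := le_normalizer_sup (le_refl (Subgroup.normalizer
        ((C.map K.subtype : Subgroup G) : Set G))) (K := N)
        (by rw [Subgroup.normalizer_eq_top N]; exact le_top)
      have h5 : Subgroup.normalizer (K : Set G) = K := by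
        rw [hK, ← Subgroup.comap_normalizer_eq_of_surjective _ (QuotientGroup.mk'_surjective N),
          hD.2]
      rwa [h2, h5] at h4
    refine ⟨C.map K.subtype, isNilpotent_map_subtype_iff.mpr hC.1, ?_⟩
    rw [← Subgroup.map_subgroupOf_eq_of_le h3,
      Subgroup.subgroupOf_normalizer_eq (Subgroup.map_subtype_le C), Subgroup.subgroupOf,
      Subgroup.comap_map_eq_self_of_injective K.subtype_injective, hC.2]

/-- If a complement system reduces into a Carter subgroup `C`, its normalizer lies in `C`. -/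
theorem IsCarterSubgroup.systemNormalizer_le {G : Type u} [Group G] [Finite G] [Group.IsSolvable G]
    {C : Subgroup G} (hC : IsCarterSubgroup C) {K : Nat.Primes → Subgroup G}
    (hK : IsComplementSystem K) (hr : ReducesInto K C) : systemNormalizer K ≤ C := by
  induction hn : Nat.card G using Nat.strong_induction_on generalizing G with | _ n ih =>
  subst hn
  rcases subsingleton_or_nontrivial G with _ | _
  · exact (Subsingleton.elim _ _).le
  obtain ⟨N, p, hN, hp, -, hNp⟩ := exists_isMinNormal_isElementaryAbelian G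
  have := hN.normal
  have := Fact.mk hp
  by_cases h : C ⊔ N = ⊤
  · have h1 := IsComplementSystem.isPiHallOf_inf hK hr ⟨p, hp⟩
    obtain ⟨h2, h3 | h3⟩ := IsCarterSubgroup.eq_top_or hC hN hNp h h1
    · rw [IsCarterSubgroup.eq_top hC h3]; exact le_top
    · rw [IsPiHall.eq_of_le h2 inf_le_left (IsComplementSystem.isPiNum_card hK ⟨p, hp⟩)] at h3
      exact h3 ▸ CL.systemNormalizer_le K ⟨p, hp⟩
  · have h1 := ih _ (card_quotient_lt hN.ne_bot) (IsCarterSubgroup.map_mk' hC N)
      (IsComplementSystem.map hK (QuotientGroup.mk'_surjective N)) (ReducesInto.map hK hr _) rfl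
    rw [IsComplementSystem.systemNormalizer_map_mk' hK, map_mk'_le_map_mk'_iff] at h1
    have h2 := ReducesInto.sup hK hr (IsComplementSystem.reducesInto_of_normal hK N)
      (by rw [Subgroup.normalizer_eq_top]; exact le_top)
    have h3 := (subgroupOf_systemNormalizer_le K _).trans (ih _ (card_lt_of_ne_top h)
      (IsCarterSubgroup.subgroupOf hC le_sup_left) (IsComplementSystem.subgroupOf hK h2)
      (hr.subgroupOf le_sup_left) rfl)
    intro x hx
    exact h3 (show (⟨x, h1 hx⟩ : ↥(C ⊔ N)) ∈ (systemNormalizer K).subgroupOf (C ⊔ N) from hx)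

theorem IsCarterSubgroup.exists_systemNormalizer_le [Finite G] [Group.IsSolvable G]
    {C : Subgroup G} (hC : IsCarterSubgroup C) :
    ∃ K : Nat.Primes → Subgroup G, IsComplementSystem K ∧ systemNormalizer K ≤ C := by
  obtain ⟨K, hK, hr⟩ := exists_isComplementSystem_reducesInto C
  exact ⟨K, hK, IsCarterSubgroup.systemNormalizer_le hC hK hr⟩

theorem IsComplementSystem.exists_conj_systemNormalizer [Finite G] [Group.IsSolvable G]
    {K L : Nat.Primes → Subgroup G} (hK : IsComplementSystem K) (hL : IsComplementSystem L) :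
    ∃ g : G, MulAut.conj g • systemNormalizer K = systemNormalizer L := by
  obtain ⟨g, hg⟩ := IsComplementSystem.exists_conj_eq hK hL
  exact ⟨g, by rw [← systemNormalizer_conj_smul, funext hg]⟩

theorem IsComplementSystem.exists_isCarterSubgroup_ge [Finite G] [Group.IsSolvable G]
    {K : Nat.Primes → Subgroup G} (hK : IsComplementSystem K) :
    ∃ C : Subgroup G, IsCarterSubgroup C ∧ systemNormalizer K ≤ C := by
  obtain ⟨C, hC⟩ := exists_isCarterSubgroup G
  obtain ⟨L, hL, h⟩ := IsCarterSubgroup.exists_systemNormalizer_le hC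
  obtain ⟨g, hg⟩ := IsComplementSystem.exists_conj_systemNormalizer hL hK
  exact ⟨_, IsCarterSubgroup.conj_smul hC g, hg ▸ conj_smul_mono g h⟩

theorem IsCarterSubgroup.exists_eq_systemNormalizer [Finite G] {F : Subgroup G} [F.Normal]
    (hF : Group.IsNilpotent F) (hGF : Group.IsNilpotent (G ⧸ F)) {C : Subgroup G}
    (hC : IsCarterSubgroup C) :
    ∃ K : Nat.Primes → Subgroup G, IsComplementSystem K ∧ C = systemNormalizer K := by
  have : Group.IsSolvable G := Group.isSolvable_of_ker_le_range F.subtype (QuotientGroup.mk' F)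
    (by rw [QuotientGroup.ker_mk', Subgroup.range_subtype])
  obtain ⟨K, hK, hr⟩ := exists_isComplementSystem_reducesInto C
  refine ⟨K, hK, le_antisymm (le_systemNormalizer.mpr fun p => ?_)
    (IsCarterSubgroup.systemNormalizer_le hC hK hr)⟩
  have hn := IsComplementSystem.reducesInto_of_normal hK F
  have h1 := ReducesInto.isPiHallOf_sup hK hr hn
    (by rw [Subgroup.normalizer_eq_top]; exact le_top) p
  rw [IsCarterSubgroup.sup_eq_top hC F hGF, isPiHallOf_top] at h1
  rw [← IsPiHall.eq_of_le h1 (sup_le inf_le_left inf_le_left) (IsComplementSystem.isPiNum_card hK p)]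
  have h2 := IsComplementSystem.isPiHallOf_inf hK hn p
  refine le_normalizer_sup (IsPiHallOf.le_normalizer_of_isNilpotent
    (IsComplementSystem.isPiHallOf_inf hK hr p) hC.1) ?_
  rw [IsPiHallOf.eq_map_piCore h2 (IsPiHallOf.le_normalizer_of_isNilpotent h2 hF),
    Subgroup.normalizer_eq_top]
  exact le_top

/-- In a metanilpotent group the Carter subgroups are the system normalizers. -/
theorem isCarterSubgroup_iff_of_metanilpotent [Finite G] {F : Subgroup G} [F.Normal]
    (hF : Group.IsNilpotent F) (hGF : Group.IsNilpotent (G ⧸ F)) {C : Subgroup G} :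
    IsCarterSubgroup C ↔
      ∃ K : Nat.Primes → Subgroup G, IsComplementSystem K ∧ C = systemNormalizer K := by
  refine ⟨IsCarterSubgroup.exists_eq_systemNormalizer hF hGF, ?_⟩
  rintro ⟨K, hK, rfl⟩
  have : Group.IsSolvable G := Group.isSolvable_of_ker_le_range F.subtype (QuotientGroup.mk' F)
    (by rw [QuotientGroup.ker_mk', Subgroup.range_subtype])
  obtain ⟨C, hC⟩ := exists_isCarterSubgroup G
  obtain ⟨L, hL, rfl⟩ := IsCarterSubgroup.exists_eq_systemNormalizer hF hGF hC
  obtain ⟨g, hg⟩ := IsComplementSystem.exists_conj_systemNormalizer hL hK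
  exact hg ▸ IsCarterSubgroup.conj_smul hC g

theorem exists_prod_ofFn_mul_normal {N : Subgroup G} [hN : N.Normal] {t : ℕ}
    (S : Fin t → Subgroup G) (i : Fin t) (hi : N ≤ S i) (s : Fin t → G) (hs : ∀ j, s j ∈ S j)
    {n : G} (hn : n ∈ N) :
    ∃ s' : Fin t → G, (∀ j, s' j ∈ S j) ∧ (List.ofFn s).prod * n = (List.ofFn s').prod := by
  induction t with
  | zero => exact i.elim0
  | succ t ih =>
    induction i using Fin.cases with
    | zero =>
      refine ⟨Fin.cons (s 0 * ((List.ofFn (Fin.tail s)).prod * n * (List.ofFn (Fin.tail s)).prod⁻¹))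
        (Fin.tail s), fun j => ?_, ?_⟩
      · induction j using Fin.cases with
        | zero => exact (S 0).mul_mem (hs 0) (hi (hN.conj_mem n hn _))
        | succ j => exact hs j.succ
      · simp [List.ofFn_succ, Fin.tail_def, mul_assoc]
    | succ i =>
      obtain ⟨s', h1, h2⟩ := ih (Fin.tail S) i hi (Fin.tail s) fun j => hs j.succ
      refine ⟨Fin.cons (s 0) s', fun j => ?_, ?_⟩
      · induction j using Fin.cases with
        | zero => exact hs 0
        | succ j => exact h1 j
      · rw [List.ofFn_succ, List.ofFn_succ, List.prod_cons, List.prod_cons, mul_assoc]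
        exact congrArg (s 0 * ·) h2

/-- A solvable group is the product, in any order, of Hall subgroups covering all primes. -/
theorem exists_prod_ofFn_of_isPiHall {G : Type u} [Group G] [Finite G] [Group.IsSolvable G] {t : ℕ}
    (π : Fin t → Set ℕ) (hall : ∀ q : ℕ, q.Prime → q ∣ Nat.card G → ∃ i, q ∈ π i)
    (S : Fin t → Subgroup G) (hS : ∀ i, IsPiHall (π i) (S i)) (g : G) :
    ∃ s : Fin t → G, (∀ i, s i ∈ S i) ∧ g = (List.ofFn s).prod := by
  induction hn : Nat.card G using Nat.strong_induction_on generalizing G with | _ n ih =>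
  subst hn
  rcases subsingleton_or_nontrivial G with _ | _
  · exact ⟨1, fun i => (S i).one_mem, Subsingleton.elim _ _⟩
  obtain ⟨N, p, hN, hp, -, hNp⟩ := exists_isMinNormal_isElementaryAbelian G
  have := hN.normal
  have := Fact.mk hp
  obtain ⟨y, hy, e⟩ := ih _ (card_quotient_lt hN.ne_bot)
    (fun q hq hd => hall q hq (hd.trans (card_quotient_dvd N)))
    (fun i => (S i).map (QuotientGroup.mk' N))
    (fun i => IsPiHall.map (hS i) (QuotientGroup.mk'_surjective N)) (QuotientGroup.mk' N g) rfl
  choose s hs hsy using hy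
  have := hN.nontrivial
  obtain ⟨i, hi⟩ := hall p hp (((hNp.card_eq_or_dvd).resolve_left Finite.one_lt_card.ne').trans
    N.card_subgroup_dvd_card)
  have h1 : (List.ofFn s).prod⁻¹ * g ∈ N := by
    rw [← QuotientGroup.eq, ← QuotientGroup.mk'_apply, ← QuotientGroup.mk'_apply, e, map_list_prod,
      List.map_ofFn, ← funext hsy]
    rfl
  obtain ⟨s', h2, h3⟩ := exists_prod_ofFn_mul_normal S i
    (IsPiHall.normal_le (hS i) (IsPiNum.of_isPGroup hNp hi)) s hs h1
  exact ⟨s', h2, by rw [← h3, mul_inv_cancel_left]⟩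

end CL
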