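import Mathlib
import Cfsg.Agent.SOLV.KegelWielandt2
import Cfsg.Agent.SOLV.Supersolvable

/-!
Products with an abelian factor.
-/

set_option autoImplicit false

open Subgroup Cfsg
open scoped Pointwise commutatorElement

namespace CL

universe u

variable {G : Type*} [Group G]

/-- A nontrivial finite product of two abelian groups has a nontrivial normal subgroup inside one
of the factors. -/
theorem exists_normal_le_of_isFact_of_comm [Finite G] [Nontrivial G] {A B : Subgroup G}
    [IsMulCommutative A] [IsMulCommutative B] (h : IsFact A B) :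
    ∃ N : Subgroup G, N.Normal ∧ N ≠ ⊥ ∧ (N ≤ A ∨ N ≤ B) := by
  set D := _root_.commutator G with hD
  have hn : ∀ X : Subgroup G, D ≤ X → X.Normal := fun X hX => Normal.of_commutator_le G hX
  have key : ∀ (A B : Subgroup G) [IsMulCommutative A] [IsMulCommutative B], IsFact A B →
      ∀ a ∈ A, a ≠ 1 → a ∈ centralizer (D : Set G) →
      ∃ N : Subgroup G, N.Normal ∧ N ≠ ⊥ ∧ (N ≤ A ∨ N ≤ B) := by
    intro A B _ _ h a ha ha1 haD
    have := hn (A ⊔ D) le_sup_right
    by_cases hZ : (A ⊔ D) ⊓ centralizer ((A ⊔ D : Subgroup G) : Set G) ≤ A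
    · refine ⟨_, inferInstance, fun e => ha1 (mem_bot.1 (e.le (mem_inf.2 ⟨mem_sup_left ha, ?_⟩))),
        Or.inl hZ⟩
      refine zpowers_le.1 (le_centralizer_iff.1 (sup_le ?_ ?_))
      · exact le_centralizer_iff.1 (zpowers_le.2 (A.le_centralizer ha))
      · exact le_centralizer_iff.1 (zpowers_le.2 haD)
    obtain ⟨z, hz, hzA⟩ := SetLike.not_le_iff_exists.1 hZ
    obtain ⟨a', ha', b, hb, rfl⟩ := h z
    have h1 : b ∈ centralizer (A : Set G) := (mul_mem_cancel_left (A.le_centralizer ha')).1
      (centralizer_le (SetLike.coe_subset_coe.2 le_sup_left) hz.2)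
    have h2 : zpowers b ≤ center G := by
      rw [← centralizer_univ, ← coe_top, le_centralizer_iff]
      exact (h.eq_top_of_le (le_centralizer_iff.1 (zpowers_le.2 h1))
        (le_centralizer_iff.1 (zpowers_le.2 (B.le_centralizer hb)))).ge
    refine ⟨zpowers b, normal_of_le_center h2, fun e => hzA ?_, Or.inr (zpowers_le.2 hb)⟩
    rwa [zpowers_eq_bot.1 e, mul_one]
  by_cases hD1 : D = ⊥
  · by_cases hA : A = ⊥
    · exact ⟨B, hn B (hD1 ▸ bot_le), fun e => bot_ne_top (h.eq_top_of_le hA.le e.le), Or.inr le_rfl⟩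
    · exact ⟨A, hn A (hD1 ▸ bot_le), hA, Or.inl le_rfl⟩
  have hDc : IsMulCommutative D := by
    rw [← le_centralizer_iff_isMulCommutative, ← commutator_eq_bot_iff_le_centralizer]
    exact derivedSeries_two_eq_bot_of_isFact h
  set X := (A ⊔ D) ⊓ (B ⊔ D) with hX
  have hDX : D ≤ X := le_inf le_sup_right le_sup_right
  have f1 : IsFact (A.subgroupOf X) (B.subgroupOf X) := IsFact.subgroupOf_of_forall fun g hg => by
    obtain ⟨a, ha, b, hb, rfl⟩ := h g
    exact ⟨a, ha, b, hb, rfl, Or.inl (mem_inf.2 ⟨mem_sup_left ha,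
      (mul_mem_cancel_right (mem_sup_left hb)).1 (mem_inf.1 hg).2⟩)⟩
  have f2 : ∀ Y : Subgroup G, X ≤ Y ⊔ D → IsFact (Y.subgroupOf X) (D.subgroupOf X) := fun Y hY =>
    IsFact.subgroupOf_of_forall fun g hg => by
      obtain ⟨a, ha, d, hd, e⟩ := (mem_sup_of_le_normalizer le_normalizer_of_normal).1 (hY hg)
      exact ⟨a, ha, d, hd, e.symm, Or.inr (hDX hd)⟩
  have hXn := isNilpotent_of_trifactorized
    (isNilpotent_subgroupOf (isNilpotent_of_isMulCommutative A) X)
    (isNilpotent_subgroupOf (isNilpotent_of_isMulCommutative B) X)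
    (isNilpotent_subgroupOf (isNilpotent_of_isMulCommutative D) X) f1 (f2 A inf_le_left)
    (f2 B inf_le_right)
  obtain ⟨⟨z, hz⟩, hz1⟩ := ne_bot_iff_exists_ne_one.1 (inf_centralizer_ne_bot_of_isNilpotent hXn hDX
    le_normalizer_of_normal hD1)
  obtain ⟨a, ha, b, hb, rfl⟩ := IsFact.subgroupOf_iff.1 f1 z (hDX hz.1)
  have h1 : b ∈ centralizer (X : Set G) := fun x hx => by
    obtain ⟨a', ha', b', hb', rfl⟩ := IsFact.subgroupOf_iff.1 f1 x hx
    have e1 : a' * (a * b) = a * b * a' := hz.2 a' ha'.2
    have e2 : a' * a = a * a' := A.le_centralizer ha.1 a' ha'.1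
    have e3 : b' * b = b * b' := B.le_centralizer hb.1 b' hb'.1
    have e4 : a' * b = b * a' := by
      rw [← mul_assoc, e2, mul_assoc, mul_assoc] at e1
      exact mul_left_cancel e1
    rw [mul_assoc, e3, ← mul_assoc, e4, mul_assoc]
  have h2 : a ∈ centralizer (X : Set G) := (mul_mem_cancel_right h1).1 hz.2
  by_cases ha1 : a = 1
  · obtain ⟨N, h3, h4, h5⟩ := key B A h.symm b hb.1
      (fun e => hz1 (Subtype.ext (by simp [ha1, e]))) (centralizer_le hDX h1)
    exact ⟨N, h3, h4, h5.symm⟩
  · exact key A B h a ha.1 ha1 (centralizer_le hDX h2)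

/-- A finite product of two cyclic groups is supersolvable. -/
theorem isSupersolvable_of_isFact_of_isCyclic {G : Type u} [Group G] [Finite G] {A B : Subgroup G}
    (hA : IsCyclic A) (hB : IsCyclic B) (h : IsFact A B) : IsSupersolvable G := by
  induction hn : Nat.card G using Nat.strong_induction_on generalizing G with | _ n ih =>
  subst hn
  rcases subsingleton_or_nontrivial G with _ | _
  · exact IsSupersolvable.of_subsingleton
  obtain ⟨N, hN, hN1, hle⟩ := exists_normal_le_of_isFact_of_comm h
  have : IsCyclic N := hle.elim (fun e => isCyclic_of_le e) fun e => isCyclic_of_le e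
  exact IsSupersolvable.of_cyclic_normal N (ih _ (card_quotient_lt hN1)
    (isCyclic_of_surjective _ ((QuotientGroup.mk' N).subgroupMap_surjective A))
    (isCyclic_of_surjective _ ((QuotientGroup.mk' N).subgroupMap_surjective B))
    (h.map (QuotientGroup.mk'_surjective N)) rfl)

/-- If `G = AB` with `A` abelian, `B` nilpotent and `G = ⟨A, B'⟩` then `G = A`. -/
theorem eq_top_of_isFact_of_sup_commutator {G : Type u} [Group G] [Finite G] {A B : Subgroup G}
    [hA : IsMulCommutative A] (hB : Group.IsNilpotent B) (h : IsFact A B) (ht : A ⊔ ⁅B, B⁆ = ⊤) :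
    A = ⊤ := by
  induction hn : Nat.card G using Nat.strong_induction_on generalizing G with | _ n ih =>
  subst hn
  by_contra hne
  have := isSolvable_of_isFact_of_isNilpotent (isNilpotent_of_isMulCommutative A) hB h
  have : Nontrivial G := by
    by_contra hs
    rw [not_nontrivial_iff_subsingleton] at hs
    exact hne (Subsingleton.elim _ _)
  have key : ∀ (N : Subgroup G) [N.Normal], N ≠ ⊥ → A ⊔ N = ⊤ := fun N _ hN => by
    have hs := QuotientGroup.mk'_surjective N
    rw [← comap_map_mk', ih _ (card_quotient_lt hN) (isNilpotent_map B _) (h.map hs)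
      (by rw [← map_commutator, ← Subgroup.map_sup, ht, map_top_of_surjective _ hs]) rfl, comap_top]
  have key2 : ∀ X : Subgroup G, X ≤ A → X.Normal → X = ⊥ := fun X hX _ => by
    by_contra e
    exact hne (by rw [← key X e, sup_eq_left.2 hX])
  obtain ⟨N, hN⟩ := exists_isMinNormal G
  have := hN.normal
  have hNc := hN.isMulCommutative_of_isSolvable inferInstance
  obtain ⟨p, hp, hNp⟩ := hN.exists_isPGroup_of_isSolvable inferInstance
  have := Fact.mk hp
  have hAN : IsFact A N := .of_sup_eq_top (key N hN.ne_bot)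
  have hC : ∀ X : Subgroup G, X ≤ A → X ≤ centralizer (N : Set G) → X = ⊥ := fun X h1 h2 =>
    key2 X h1 (normalizer_eq_top_iff.1 (hAN.eq_top_of_le
      ((le_centralizer_iff.1 (h1.trans A.le_centralizer)).trans (centralizer_le_normalizer _))
      ((le_centralizer_iff.1 h2).trans (centralizer_le_normalizer _))))
  have hpA : ¬ p ∣ Nat.card A := fun hd => by
    obtain ⟨P, hPA, hP, hP1⟩ := exists_isPGroup_le_ne_bot hd
    have h1 := inf_centralizer_ne_bot_of_isPGroup hNp hP le_normalizer_of_normal hN.ne_bot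
    have h2 : (N ⊓ centralizer (P : Set G)).Normal := normalizer_eq_top_iff.1 (hAN.eq_top_of_le
      (le_normalizer_inf le_normalizer_of_normal (le_normalizer_centralizer
        ((A.le_centralizer.trans (centralizer_le hPA)).trans (centralizer_le_normalizer _))))
      ((N.le_centralizer.trans (centralizer_le (SetLike.coe_subset_coe.2 inf_le_left))).trans
        (centralizer_le_normalizer _)))
    exact hP1 (hC P hPA (le_centralizer_iff.1 ((hN.eq_of_le inf_le_left h1).ge.trans inf_le_right)))
  have hcop : (Nat.card N).Coprime (Nat.card A) :=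
    coprime_card_of_isPGroup_of_coprime hNp (hp.coprime_iff_not_dvd.2 hpA).symm
  have hNB : N ≤ B := normal_le_of_coprime_index (hcop.coprime_dvd_right h.index_dvd_card)
  have hAB : A ⊓ B = ⊥ := hC _ inf_le_left (le_centralizer_of_coprime_of_le_nilpotent hB
    inf_le_right hNB (hcop.symm.coprime_dvd_left (card_dvd_of_le inf_le_left)))
  have hBN : B ≤ N := by
    intro b hb
    obtain ⟨a, ha, n, hn, rfl⟩ := hAN b
    have : a ∈ A ⊓ B := mem_inf.2 ⟨ha, (mul_mem_cancel_right (hNB hn)).1 hb⟩
    rwa [mem_bot.1 (hAB.le this), one_mul]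
  refine hne ?_
  rwa [commutator_eq_bot_iff_le_centralizer.2 (hBN.trans (N.le_centralizer.trans
    (centralizer_le hBN))), sup_bot_eq] at ht

theorem derivedSeries_two_le_normalClosure {A B : Subgroup G} [IsMulCommutative A]
    (h : IsFact A B) : derivedSeries G 2 ≤ normalClosure ((⁅B, B⁆ : Subgroup G) : Set G) := by
  set K := normalClosure ((⁅B, B⁆ : Subgroup G) : Set G)
  have hs := QuotientGroup.mk'_surjective K
  have : IsMulCommutative (B.map (QuotientGroup.mk' K)) := by
    rw [← le_centralizer_iff_isMulCommutative, ← commutator_eq_bot_iff_le_centralizer,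
      ← map_commutator, map_mk'_eq_bot_iff]
    exact le_normalClosure
  rw [← map_mk'_eq_bot_iff, map_derivedSeries_eq hs]
  exact derivedSeries_two_eq_bot_of_isFact (h.map hs)

/-- The derived series of a subgroup, in the ambient group. -/
def derivedIn (K : Subgroup G) : ℕ → Subgroup G
  | 0 => K
  | n + 1 => ⁅derivedIn K n, derivedIn K n⁆

theorem derivedIn_mono {K L : Subgroup G} (h : K ≤ L) : ∀ n, derivedIn K n ≤ derivedIn L n
  | 0 => h
  | n + 1 => commutator_mono (derivedIn_mono h n) (derivedIn_mono h n)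

theorem map_derivedIn {G' : Type*} [Group G'] (f : G →* G') (K : Subgroup G) :
    ∀ n, (derivedIn K n).map f = derivedIn (K.map f) n
  | 0 => rfl
  | n + 1 => by rw [derivedIn, map_commutator, map_derivedIn f K n, derivedIn]

theorem derivedSeries_add (m : ℕ) :
    ∀ n, derivedSeries G (m + n) = derivedIn (derivedSeries G m) n
  | 0 => rfl
  | n + 1 => by rw [← add_assoc, derivedSeries_succ, derivedSeries_add m n, derivedIn]

theorem derivedIn_eq_bot_of_le {K : Subgroup G} {m n : ℕ} (h : derivedIn K m = ⊥) (hmn : m ≤ n) :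
    derivedIn K n = ⊥ := by
  induction hmn with
  | refl => exact h
  | step _ ih => rw [derivedIn, ih, commutator_bot_left]

theorem derivedIn_normalClosure_eq_bot {G : Type u} [Group G] [Finite G] {A B : Subgroup G}
    [hA : IsMulCommutative A] (hB : Group.IsNilpotent B) (h : IsFact A B) :
    derivedIn (normalClosure ((⁅B, B⁆ : Subgroup G) : Set G))
      (2 * (Nat.card (⁅B, B⁆ : Subgroup G)).primeFactorsList.length) = ⊥ := by
  induction hn : Nat.card G using Nat.strong_induction_on generalizing G with | _ n ih =>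
  subst hn
  set H := A ⊔ ⁅B, B⁆ with hH
  by_cases hHt : H = ⊤
  · obtain rfl := eq_top_of_isFact_of_sup_commutator hB h hHt
    have : (⁅B, B⁆ : Subgroup G) = ⊥ := commutator_eq_bot_iff_le_centralizer.2
      (le_top.trans ((⊤ : Subgroup G).le_centralizer.trans (centralizer_le (Set.subset_univ _))))
    rw [this]
    simp [derivedIn]
  have hf := h.subgroupOf_of_le_left (le_sup_left : A ≤ H)
  have ih' := ih _ (card_lt_of_ne_top hHt) (isNilpotent_subgroupOf hB H) hf rfl
  set B₁ := B.subgroupOf H
  have h1 : (⁅B₁, B₁⁆ : Subgroup H).map H.subtype ≤ ⁅B, B⁆ := by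
    rw [map_commutator]
    exact commutator_mono (map_comap_le _ _) (map_comap_le _ _)
  have h2 : ∀ L : Subgroup G, ⁅B, B⁆ ≤ L → A ≤ normalizer (L : Set G) →
      normalClosure ((⁅B, B⁆ : Subgroup G) : Set G) ≤ L := fun L h3 h4 =>
    h.symm.normalClosure_le (normalizer_commutator_ge_left B B) h3 h4
  rcases h1.eq_or_lt with h3 | h3
  · have h4 := h2 ((normalClosure ((⁅B₁, B₁⁆ : Subgroup H) : Set H)).map H.subtype)
      (h3.ge.trans (map_mono le_normalClosure))
      (le_sup_left.trans (le_normalizer_map_subtype H _))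
    rw [← h3, card_subtype, h3, eq_bot_iff]
    refine (derivedIn_mono h4 _).trans ?_
    rw [← map_derivedIn, ih', Subgroup.map_bot]
  · have h4 : (Nat.card (⁅B₁, B₁⁆ : Subgroup H)).primeFactorsList.length <
        (Nat.card (⁅B, B⁆ : Subgroup G)).primeFactorsList.length := by
      have h5 := card_mul_relIndex_of_le h1
      have h6 : ((⁅B₁, B₁⁆ : Subgroup H).map H.subtype).relIndex ⁅B, B⁆ ≠ 1 :=
        fun e => h3.not_ge (relIndex_eq_one.1 e)
      have h7 : ((⁅B₁, B₁⁆ : Subgroup H).map H.subtype).relIndex ⁅B, B⁆ ≠ 0 :=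
        index_ne_zero_of_finite
      rw [card_subtype] at h5
      rw [← h5, (Nat.perm_primeFactorsList_mul Nat.card_pos.ne' h7).length_eq, List.length_append,
        lt_add_iff_pos_right, List.length_pos_iff, Ne, Nat.primeFactorsList_eq_nil]
      exact fun e => e.elim h7 h6
    have h5 : derivedIn (⊤ : Subgroup H)
        (2 + 2 * (Nat.card (⁅B₁, B₁⁆ : Subgroup H)).primeFactorsList.length) = ⊥ := by
      have := derivedSeries_add (G := H) 0
        (2 + 2 * (Nat.card (⁅B₁, B₁⁆ : Subgroup H)).primeFactorsList.length)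
      rw [derivedSeries_zero] at this
      rw [← this, zero_add, derivedSeries_add, eq_bot_iff]
      exact (derivedIn_mono (derivedSeries_two_le_normalClosure hf) _).trans ih'.le
    rw [eq_bot_iff]
    refine (derivedIn_mono (h2 H le_sup_right (le_sup_left.trans le_normalizer)) _).trans ?_
    conv_lhs => rw [← range_subtype H, MonoidHom.range_eq_map]
    rw [← map_derivedIn, derivedIn_eq_bot_of_le h5 (by omega), Subgroup.map_bot]

theorem derivedSeries_eq_bot_of_isFact_of_comm_of_isNilpotent [Finite G] {A B : Subgroup G}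
    [IsMulCommutative A] (hB : Group.IsNilpotent B) (h : IsFact A B) :
    derivedSeries G (2 * (1 + (Nat.card (⁅B, B⁆ : Subgroup G)).primeFactorsList.length)) = ⊥ := by
  rw [mul_add, mul_one, derivedSeries_add, eq_bot_iff]
  exact (derivedIn_mono (derivedSeries_two_le_normalClosure h) _).trans
    (derivedIn_normalClosure_eq_bot hB h).le

end CL
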