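import Cfsg.Agent.SOLV.Gaschutz

/-!
Gaschütz's theorem, local-global form.
-/

set_option autoImplicit false

namespace CL

open Subgroup
open scoped Pointwise

variable {G : Type*} [Group G]

/-- Corestriction of the projection along a complement in `U`. -/
theorem exists_derivation_pow_index (K U : Subgroup G) [K.Normal] [IsMulCommutative K] [U.FiniteIndex]
    (hKU : K ≤ U) (A : Subgroup G) (hAK : A ⊓ K = ⊥) (hKA : K ⊔ A = U) :
    ∃ δ : G → K, (∀ g h, δ (g * h) = δ g * MulAut.conjNormal g (δ h)) ∧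
      ∀ k : K, δ k = k ^ U.index := by
  classical
  let _ : CommGroup K := { (inferInstance : Group K) with mul_comm := mul_comm' }
  have hex : ∀ g : G, ∃ k : K, g ∈ U → (k : G)⁻¹ * g ∈ A := fun g => by
    by_cases hg : g ∈ U
    · rw [← hKA] at hg
      obtain ⟨k, hk, a, ha, rfl⟩ := Subgroup.mem_sup_of_normal_left.mp hg
      exact ⟨⟨k, hk⟩, fun _ => by simpa using ha⟩
    · exact ⟨1, fun h => absurd h hg⟩
  choose π hπ using hex
  have huniq : ∀ g ∈ U, ∀ k : K, (k : G)⁻¹ * g ∈ A → π g = k := by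
    intro g hg k hk
    have h1 : (π g : G)⁻¹ * k ∈ A ⊓ K := by
      refine Subgroup.mem_inf.mpr ⟨?_, mul_mem (inv_mem (π g).2) k.2⟩
      have := mul_mem (hπ g hg) (inv_mem hk)
      simpa [mul_assoc] using this
    rw [hAK, Subgroup.mem_bot, inv_mul_eq_one] at h1
    exact Subtype.ext h1
  have hcoc : ∀ u ∈ U, ∀ v ∈ U, π (u * v) = π u * MulAut.conjNormal u (π v) := by
    intro u hu v hv
    apply huniq _ (mul_mem hu hv)
    have h1 : ((π u * MulAut.conjNormal u (π v) : K) : G)⁻¹ * (u * v) =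
        ((π u : G)⁻¹ * u) * ((π v : G)⁻¹ * v) := by
      rw [mul_comm (π u)]
      simp [mul_assoc]
    rw [h1]
    exact mul_mem (hπ u hu) (hπ v hv)
  let _ := U.fintypeQuotientOfFiniteIndex
  let t : G ⧸ U → G := Quotient.out
  have ht : ∀ (g : G) (q : G ⧸ U), (t (g • q))⁻¹ * g * t q ∈ U := by
    intro g q
    rw [mul_assoc, ← QuotientGroup.eq, QuotientGroup.out_eq', ← smul_eq_mul,
      ← MulAction.Quotient.smul_coe, QuotientGroup.out_eq']
  let δ : G → K := fun g => ∏ q : G ⧸ U, MulAut.conjNormal (t (g • q)) (π ((t (g • q))⁻¹ * g * t q))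
  have hδ : ∀ g h, δ (g * h) = δ g * MulAut.conjNormal g (δ h) := by
    intro g h
    simp only [δ]
    rw [map_prod, ← Fintype.prod_bijective (fun q : G ⧸ U => h • q) (MulAction.bijective h)
      (fun q => MulAut.conjNormal (t (g • h • q)) (π ((t (g • h • q))⁻¹ * g * t (h • q))))
      (fun q => MulAut.conjNormal (t (g • q)) (π ((t (g • q))⁻¹ * g * t q)))
      (fun _ => rfl), ← Finset.prod_mul_distrib]
    refine Finset.prod_congr rfl fun q _ => ?_
    have h1 : (t ((g * h) • q))⁻¹ * (g * h) * t q =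
        ((t (g • h • q))⁻¹ * g * t (h • q)) * ((t (h • q))⁻¹ * h * t q) := by
      rw [mul_smul]; group
    rw [h1, hcoc _ (ht g _) _ (ht h _), map_mul, mul_smul]
    congr 1
    rw [← MulAut.mul_apply, ← MulAut.mul_apply, ← map_mul, ← map_mul]
    congr 2
    group
  have hδK : ∀ k : K, δ k = k ^ U.index := by
    intro k
    have h1 : ∀ q : G ⧸ U, (k : G) • q = q := by
      intro q
      induction q using QuotientGroup.induction_on with | H x => ?_
      rw [MulAction.Quotient.smul_coe, smul_eq_mul, eq_comm, QuotientGroup.eq, ← mul_assoc]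
      exact hKU ((inferInstance : K.Normal).conj_mem' k k.2 x)
    have h2 : ∀ q : G ⧸ U,
        MulAut.conjNormal (t ((k : G) • q)) (π ((t ((k : G) • q))⁻¹ * k * t q)) = k := by
      intro q
      rw [h1]
      have hm := (inferInstance : K.Normal).conj_mem' k k.2 (t q)
      rw [huniq _ (hKU hm) ⟨_, hm⟩ (by rw [inv_mul_cancel]; exact one_mem _)]
      apply Subtype.ext
      simp [mul_assoc]
    simp only [δ, h2]
    rw [Finset.prod_const, Finset.card_univ, Subgroup.index_eq_card, Nat.card_eq_fintype_card]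
  exact ⟨δ, hδ, hδK⟩

/-- An abelian normal subgroup `K` has a complement if for every prime `p` dividing its index it
has a complement in some subgroup `U ≥ K` of index prime to `p`. -/
theorem gaschutz_exists_of_forall_prime (K : Subgroup G) [K.Normal] [IsMulCommutative K]
    [K.FiniteIndex] (h : ∀ p : ℕ, p.Prime → p ∣ K.index →
      ∃ U A : Subgroup G, ¬ p ∣ U.index ∧ A ⊓ K = ⊥ ∧ K ⊔ A = U) :
    ∃ H : Subgroup G, IsComplement' K H := by
  let _ : CommGroup K := { (inferInstance : Group K) with mul_comm := mul_comm' }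
  let I : AddSubgroup ℤ :=
    { carrier := {n | ∃ δ : G → K, (∀ g h, δ (g * h) = δ g * MulAut.conjNormal g (δ h)) ∧
        ∀ k : K, δ k = k ^ n}
      zero_mem' := ⟨fun _ => 1, by simp, by simp⟩
      add_mem' := by
        rintro a b ⟨δ, h1, h2⟩ ⟨ε, h3, h4⟩
        refine ⟨fun g => δ g * ε g, fun g h => ?_, fun k => ?_⟩
        · simp only [h1, h3, map_mul]; exact mul_mul_mul_comm _ _ _ _
        · simp only [h2, h4, zpow_add]
      neg_mem' := by
        rintro a ⟨δ, h1, h2⟩
        refine ⟨fun g => (δ g)⁻¹, fun g h => ?_, fun k => ?_⟩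
        · simp only [h1, map_inv, mul_inv]
        · simp only [h2, zpow_neg] }
  have hI : ∀ U A : Subgroup G, A ⊓ K = ⊥ → K ⊔ A = U → (U.index : ℤ) ∈ I := by
    intro U A h1 h2
    have hKU : K ≤ U := h2 ▸ le_sup_left
    have : U.FiniteIndex := Subgroup.finiteIndex_of_le hKU
    obtain ⟨δ, h3, h4⟩ := exists_derivation_pow_index K U hKU A h1 h2
    exact ⟨δ, h3, fun k => by rw [h4, zpow_natCast]⟩
  obtain ⟨a, ha⟩ := Int.subgroup_cyclic I
  have hdvd : ∀ n : ℤ, n ∈ I ↔ a ∣ n := fun n => by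
    rw [ha, AddSubgroup.mem_closure_singleton]
    exact ⟨fun ⟨m, hm⟩ => ⟨m, by rw [← hm, smul_eq_mul, mul_comm]⟩,
      fun ⟨m, hm⟩ => ⟨m, by rw [hm, smul_eq_mul, mul_comm]⟩⟩
  have h1 : a.natAbs = 1 := by
    by_contra hne
    obtain ⟨p, hp, hpa⟩ := Nat.exists_prime_and_dvd hne
    have h2 := (hdvd _).mp (hI K ⊥ (by simp) (by simp))
    obtain ⟨U, A, h3, h4, h5⟩ := h p hp (hpa.trans (Int.natAbs_dvd_natAbs.mpr h2))
    exact h3 (hpa.trans (Int.natAbs_dvd_natAbs.mpr ((hdvd _).mp (hI U A h4 h5))))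
  obtain ⟨δ, h2, h3⟩ : (1 : ℤ) ∈ I := (hdvd 1).mpr (Int.natAbs_dvd_natAbs.mp (by simp [h1]))
  obtain ⟨H, hH, -⟩ := exists_complement_of_derivation K δ h2 (by
    simp only [h3, zpow_one]
    exact Function.bijective_id)
  exact ⟨H, hH⟩

end CL
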