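import Mathlib
import Cfsg.Agent.SOLV.Basic

/-!
# Fixed spaces in primitive solvable linear groups

An abelian normal subgroup of a primitive irreducible linear group acts fixed-point-freely, and
every non-identity element of a primitive solvable linear group has a fixed space of dimension at
most three quarters of the degree.
-/

set_option autoImplicit false

namespace CL.PrimLin

open Subgroup Module
open scoped commutatorElement Pointwise

variable {G : Type*} [Group G]

theorem commutator_sup_le {L M A : Subgroup G} [A.Normal] (h1 : ⁅L, L⁆ ≤ A) (h2 : ⁅M, M⁆ ≤ A)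
    (h3 : L ≤ centralizer (M : Set G)) : ⁅L ⊔ M, L ⊔ M⁆ ≤ A := by
  set f := QuotientGroup.mk' A
  have key : ∀ X Y : Subgroup G, ⁅X, Y⁆ ≤ A ↔ X.map f ≤ centralizer ((Y.map f : Subgroup _) : Set _) := by
    intro X Y
    rw [← commutator_eq_bot_iff_le_centralizer, ← map_commutator, map_mk'_eq_bot_iff]
  have h4 : ⁅L, M⁆ ≤ A := by
    rw [commutator_eq_bot_iff_le_centralizer.mpr h3]
    exact bot_le
  rw [key] at h1 h2 h4 ⊢
  rw [Subgroup.map_sup]
  refine sup_le (le_centralizer_iff.mp (sup_le h1 (le_centralizer_iff.mp h4)))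
    (le_centralizer_iff.mp (sup_le h4 h2))

/-- In a finite solvable group there is an abelian normal subgroup `A` such that every `g ≠ 1` has
a nontrivial iterated commutator of length at most two in `A`. -/
theorem exists_abelian_normal [Finite G] [Group.IsSolvable G] :
    ∃ A : Subgroup G, A.Normal ∧ A ≤ centralizer (A : Set G) ∧ ∀ g : G, g ≠ 1 →
      g ∈ A ∨ (∃ x : G, ⁅g, x⁆ ∈ A ∧ ⁅g, x⁆ ≠ 1) ∨
        ∃ x z : G, ⁅⁅g, x⁆, z⁆ ∈ A ∧ ⁅⁅g, x⁆, z⁆ ≠ 1 := by
  obtain ⟨A, ⟨hAn, hAc⟩, hAmax⟩ := (Set.toFinite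
    {A : Subgroup G | A.Normal ∧ A ≤ centralizer (A : Set G)}).exists_maximal
    ⟨⊥, inferInstance, bot_le⟩
  obtain ⟨M, ⟨hMn, hAM, hMC, hMM⟩, hMmax⟩ := (Set.toFinite
    {M : Subgroup G | M.Normal ∧ A ≤ M ∧ M ≤ centralizer (A : Set G) ∧ ⁅M, M⁆ ≤ A}).exists_maximal
    ⟨A, hAn, le_rfl, hAc, commutator_le_left _ _⟩
  have hZ : M ⊓ centralizer (M : Set G) ≤ A :=
    hAmax ⟨inferInstance, inf_le_right.trans (centralizer_le (SetLike.coe_subset_coe.mpr inf_le_left))⟩
      (le_inf hAM (le_centralizer_iff.mp hMC))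
  have hD : centralizer (M : Set G) ≤ A := by
    by_contra hn
    obtain ⟨L, ⟨hLn, hLD, hLA⟩, hLmin⟩ := (Set.toFinite
      {L : Subgroup G | L.Normal ∧ L ≤ centralizer (M : Set G) ∧ ¬ L ≤ A}).exists_minimal
      ⟨_, inferInstance, le_rfl, hn⟩
    have hL1 : L ≠ ⊥ := fun h => hLA (h ▸ bot_le)
    have hlt := Group.IsSolvable.commutator_lt_of_ne_bot hL1
    have hLL : ⁅L, L⁆ ≤ A := by
      by_contra h
      exact hlt.not_ge (hLmin ⟨inferInstance, hlt.le.trans hLD, h⟩ hlt.le)
    have := hMmax (y := L ⊔ M) ⟨inferInstance, hAM.trans le_sup_right,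
      sup_le (hLD.trans (centralizer_le (SetLike.coe_subset_coe.mpr hAM))) hMC,
      commutator_sup_le hLL hMM hLD⟩ le_sup_right
    exact hLA ((le_inf (le_sup_left.trans this) hLD).trans hZ)
  have nc : ∀ (g : G) (X : Subgroup G), g ∉ centralizer (X : Set G) → ∃ x ∈ X, ⁅g, x⁆ ≠ 1 := by
    intro g X hg
    by_contra h
    push Not at h
    exact hg fun x hx => (commutatorElement_eq_one_iff_mul_comm.mp (h x hx)).symm
  refine ⟨A, hAn, hAc, fun g _ => ?_⟩
  by_cases hg : g ∈ A
  · exact Or.inl hg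
  obtain ⟨x, hx, hx1⟩ := nc g M fun h => hg (hD h)
  by_cases hy : ⁅g, x⁆ ∈ A
  · exact Or.inr (Or.inl ⟨x, hy, hx1⟩)
  obtain ⟨z, hz, hz1⟩ := nc _ M fun h => hy (hD h)
  exact Or.inr (Or.inr ⟨x, z, hMM (commutator_mem_commutator
    (commutator_le_right ⊤ M (commutator_mem_commutator (mem_top g) hx)) hz), hz1⟩)

variable {F V : Type*} [Field F] [AddCommGroup V] [Module F V] (ρ : G →* Module.End F V)

/-- The fixed space of a group element. -/
def fix (g : G) : Submodule F V := LinearMap.ker (ρ g - 1)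

variable {ρ}

theorem mem_fix {g : G} {v : V} : v ∈ fix ρ g ↔ ρ g v = v := by
  simp [fix, sub_eq_zero]

theorem apply_apply (g h : G) (v : V) : ρ g (ρ h v) = ρ (g * h) v := by
  rw [map_mul]; rfl

theorem apply_inv (g : G) (v : V) : ρ g (ρ g⁻¹ v) = v := by
  rw [apply_apply, mul_inv_cancel, map_one]; rfl

theorem inv_apply (g : G) (v : V) : ρ g⁻¹ (ρ g v) = v := by
  rw [apply_apply, inv_mul_cancel, map_one]; rfl

theorem injective (g : G) : Function.Injective (ρ g) :=
  Function.LeftInverse.injective (inv_apply g)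

theorem finrank_map (W : Submodule F V) (g : G) : finrank F (W.map (ρ g)) = finrank F W :=
  (Submodule.equivMapOfInjective _ (injective g) W).finrank_eq.symm

theorem two_mul_finrank_fix_le [FiniteDimensional F V] (g x : G) :
    2 * finrank F (fix ρ g) ≤ finrank F V + finrank F (fix ρ ⁅g, x⁆) := by
  have h1 := Submodule.finrank_sup_add_finrank_inf_eq (fix ρ g) ((fix ρ g).map (ρ x))
  rw [finrank_map] at h1
  have h2 := Submodule.finrank_le (fix ρ g ⊔ (fix ρ g).map (ρ x))
  have h3 : fix ρ g ⊓ (fix ρ g).map (ρ x) ≤ fix ρ ⁅g, x⁆ := by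
    rintro _ ⟨h4, w, hw, rfl⟩
    rw [SetLike.mem_coe, mem_fix] at h4 hw
    have hw' : ρ g⁻¹ w = w := by
      conv_lhs => rw [← hw]
      exact inv_apply g w
    rw [mem_fix, commutatorElement_def, ← apply_apply, inv_apply, ← apply_apply, hw',
      ← apply_apply, h4]
  have h4 := Submodule.finrank_mono h3
  omega

variable (ρ) in
/-- The fixed space of a subgroup. -/
def fixS (B : Subgroup G) : Submodule F V := ⨅ b : B, fix ρ b

theorem mem_fixS {B : Subgroup G} {v : V} : v ∈ fixS ρ B ↔ ∀ b ∈ B, ρ b v = v := by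
  simp [fixS, Submodule.mem_iInf, mem_fix]

theorem map_fixS (B : Subgroup G) (g : G) :
    (fixS ρ B).map (ρ g) = fixS ρ (MulAut.conj g • B) := by
  ext v
  constructor
  · rintro ⟨w, hw, rfl⟩
    rw [mem_fixS]
    intro b hb
    have := mem_fixS.mp hw _ (mem_conj_smul_iff.mp hb)
    conv_rhs => rw [← this]
    rw [apply_apply, apply_apply]
    congr 2
    group
  · intro hv
    refine ⟨ρ g⁻¹ v, mem_fixS.mpr fun b hb => ?_, apply_inv g v⟩
    have := mem_fixS.mp hv _ (conj_mem_conj_smul (g := g) hb)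
    conv_rhs => rw [← this]
    rw [apply_apply, apply_apply]
    congr 2
    group

variable (ρ) in
/-- The stabiliser of a vector. -/
def stab (v : V) : Subgroup G where
  carrier := {g | ρ g v = v}
  one_mem' := by simp
  mul_mem' {a b} ha hb := by
    change ρ (a * b) v = v
    rw [← apply_apply, hb, ha]
  inv_mem' {a} ha := by
    change ρ a⁻¹ v = v
    conv_lhs => rw [← (ha : ρ a v = v)]
    exact inv_apply a v

theorem mem_fixS_iff_le {B : Subgroup G} {v : V} : v ∈ fixS ρ B ↔ B ≤ stab ρ v := mem_fixS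

theorem iSupIndep_fixS {ι : Type*} {A : Subgroup G} (hA : A ≤ centralizer (A : Set G))
    (B : ι → Subgroup G) (hB : ∀ i, Maximal (fun X => X ≤ A ∧ fixS ρ X ≠ ⊥) (B i))
    (hinj : Function.Injective fun i => fixS ρ (B i)) : iSupIndep fun i => fixS ρ (B i) := by
  classical
  rw [iSupIndep_iff_finset_sum_eq_zero_imp_eq_zero]
  intro s
  induction s using Finset.induction_on with
  | empty => simp
  | insert j s hj ih =>
    intro v hv hsum
    rw [Finset.sum_insert hj] at hsum
    have key : ∀ i ∈ s, v i = 0 := by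
      intro i hi
      have hij : ¬ B j ≤ B i := by
        intro h
        have h1 : B i = B j := le_antisymm ((hB j).2 (hB i).1 h) h
        have h2 : i = j := hinj (by simp only [h1])
        exact hj (h2 ▸ hi)
      obtain ⟨b, hbj, hbi⟩ := SetLike.not_le_iff_exists.mp hij
      have hbA : b ∈ A := (hB j).1.1 hbj
      have h3 := ih (fun k => ρ b (v k) - v k) (fun k hk => by
        have hk' := hv k (Finset.mem_insert_of_mem hk)
        refine Submodule.sub_mem _ (mem_fixS.mpr fun c hc => ?_) hk'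
        rw [apply_apply, hA hbA c ((hB k).1.1 hc), ← apply_apply, mem_fixS.mp hk' c hc]) (by
        have h4 := congrArg (ρ b) hsum
        rw [map_add, map_sum, map_zero,
          mem_fixS.mp (hv j (Finset.mem_insert_self _ _)) b hbj] at h4
        rw [Finset.sum_sub_distrib, sub_eq_zero]
        exact add_left_cancel (h4.trans hsum.symm)) i hi
      by_contra hne
      have h5 : v i ∈ fixS ρ (B i ⊔ zpowers b) := mem_fixS_iff_le.mpr (sup_le
        (mem_fixS_iff_le.mp (hv i (Finset.mem_insert_of_mem hi)))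
        (zpowers_le.mpr (sub_eq_zero.mp h3)))
      have h6 := (hB i).2 (y := B i ⊔ zpowers b) ⟨sup_le (hB i).1.1 (zpowers_le.mpr hbA),
        fun h => hne (by simpa [h] using h5)⟩ le_sup_left
      exact hbi (h6 (mem_sup_right (mem_zpowers b)))
    intro i hi
    rcases Finset.mem_insert.mp hi with rfl | hi
    · simpa [Finset.sum_eq_zero key] using hsum
    · exact key i hi

theorem map_map (W : Submodule F V) (g h : G) :
    (W.map (ρ h)).map (ρ g) = W.map (ρ (g * h)) := by
  rw [← Submodule.map_comp, map_mul]; rfl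

theorem map_ne_bot {W : Submodule F V} (hW : W ≠ ⊥) (g : G) : W.map (ρ g) ≠ ⊥ := by
  intro h
  apply hW
  have := congrArg (Submodule.map (ρ g⁻¹)) h
  rwa [map_map, inv_mul_cancel, map_one, Submodule.map_bot, Module.End.one_eq_id,
    Submodule.map_id] at this

/-- An abelian normal subgroup of an irreducible primitive linear group acts fixed-point-freely. -/
theorem fix_eq_bot_of_primitive [Finite G] (hinj : Function.Injective ρ)
    (hirr : ∀ W : Submodule F V, (∀ g, W.map (ρ g) ≤ W) → W = ⊥ ∨ W = ⊤)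
    (hprim : ∀ (t : ℕ) (D : Fin t → Submodule F V) (W : Submodule F V), 2 ≤ t → W ≠ ⊥ →
      (∀ i, ∃ g, D i = W.map (ρ g)) → iSupIndep D → iSup D = ⊤ →
      ¬ ∀ g, ∃ σ : Equiv.Perm (Fin t), ∀ i, (D i).map (ρ g) = D (σ i))
    {A : Subgroup G} [hAn : A.Normal] (hA : A ≤ centralizer (A : Set G)) {a : G} (ha : a ∈ A)
    (h1 : a ≠ 1) : fix ρ a = ⊥ := by
  classical
  by_contra hne
  have hza : fixS ρ (zpowers a) ≠ ⊥ := by
    intro h
    apply hne
    rw [eq_bot_iff, ← h]
    intro v hv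
    exact mem_fixS_iff_le.mpr (zpowers_le.mpr (mem_fix.mp hv))
  obtain ⟨B, hzB, hB⟩ := (Set.toFinite
    {B : Subgroup G | B ≤ A ∧ fixS ρ B ≠ ⊥}).exists_le_maximal (a := zpowers a)
    ⟨zpowers_le.mpr ha, hza⟩
  have hconj : ∀ (g : G) (X : Subgroup G), X ≤ A ∧ fixS ρ X ≠ ⊥ →
      MulAut.conj g • X ≤ A ∧ fixS ρ (MulAut.conj g • X) ≠ ⊥ := by
    rintro g X ⟨h2, h3⟩
    refine ⟨fun x hx => ?_, map_fixS (ρ := ρ) X g ▸ map_ne_bot h3 g⟩
    have := hAn.conj_mem _ (h2 (mem_conj_smul_iff.mp hx)) g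
    simpa [mul_assoc] using this
  have hmax : ∀ g : G, Maximal (fun X => X ≤ A ∧ fixS ρ X ≠ ⊥) (MulAut.conj g • B) := by
    intro g
    refine ⟨hconj g B hB.1, fun Y hY hle => ?_⟩
    have h2 := hB.2 (hconj g⁻¹ Y hY) (fun x hx => by
      rw [mem_conj_smul_iff, inv_inv]
      exact hle (conj_mem_conj_smul hx))
    intro y hy
    rw [mem_conj_smul_iff]
    apply h2
    rw [mem_conj_smul_iff]
    simpa [mul_assoc] using hy
  set W := fixS ρ B with hW
  let S : Set (Submodule F V) := Set.range fun g : G => W.map (ρ g)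
  have : Finite S := Set.finite_range _
  let e : Fin (Nat.card S) ≃ S := (Finite.equivFin S).symm
  choose c hc using fun i => (e i).2
  have hD : ∀ i, (e i : Submodule F V) = fixS ρ (MulAut.conj (c i) • B) := by
    intro i
    rw [← map_fixS, ← hc i]
  let τ : G → S → S := fun g X => ⟨(X : Submodule F V).map (ρ g), by
    obtain ⟨h, hh⟩ := X.2
    exact ⟨g * h, by rw [← hh]; exact (map_map W g h).symm⟩⟩
  have hτ : ∀ g X, τ g⁻¹ (τ g X) = X := by
    intro g X
    apply Subtype.ext
    change ((X : Submodule F V).map (ρ g)).map (ρ g⁻¹) = X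
    rw [map_map, inv_mul_cancel, map_one, Module.End.one_eq_id, Submodule.map_id]
  have hWS : W ∈ S := ⟨1, by simp [Module.End.one_eq_id]⟩
  have htop : ⨆ i, (e i : Submodule F V) = ⊤ := by
    refine (hirr _ fun g => ?_).resolve_left fun h => ?_
    · rw [Submodule.map_iSup]
      refine iSup_le fun i => le_iSup_of_le (e.symm (τ g (e i))) ?_
      rw [e.apply_symm_apply]
    · apply hB.1.2
      rw [eq_bot_iff, ← h]
      refine le_iSup_of_le (e.symm ⟨W, hWS⟩) ?_
      rw [e.apply_symm_apply]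
  refine hprim (Nat.card S) (fun i => e i) W ?_ hB.1.2 (fun i => ⟨c i, (hc i).symm⟩) ?_ htop ?_
  · by_contra hlt
    have hsub : Subsingleton S := Finite.card_le_one_iff_subsingleton.mp (by omega)
    have hWtop : W = ⊤ := by
      rw [eq_top_iff, ← htop]
      refine iSup_le fun i => ?_
      rw [Subsingleton.elim (e i) ⟨W, hWS⟩]
    apply h1
    apply hinj
    rw [map_one]
    ext v
    exact mem_fixS.mp (show v ∈ fixS ρ B from hW ▸ hWtop ▸ Submodule.mem_top) a
      (hzB (mem_zpowers a))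
  · have h2 : (fun i => (e i : Submodule F V)) = fun i => fixS ρ (MulAut.conj (c i) • B) :=
      funext hD
    rw [h2]
    refine iSupIndep_fixS hA _ (fun i => hmax (c i)) ?_
    rw [← h2]
    exact Subtype.val_injective.comp e.injective
  · intro g
    let σ : S ≃ S := ⟨τ g, τ g⁻¹, hτ g, fun X => by simpa using hτ g⁻¹ X⟩
    refine ⟨(e.trans σ).trans e.symm, fun i => ?_⟩
    simp only [Equiv.trans_apply, Equiv.apply_symm_apply]
    rfl

/-- In a primitive solvable linear group every non-identity element fixes a subspace of dimension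
at most three quarters of the degree. -/
theorem four_mul_finrank_fix_le [Finite G] [Group.IsSolvable G] [FiniteDimensional F V]
    (hinj : Function.Injective ρ)
    (hirr : ∀ W : Submodule F V, (∀ g, W.map (ρ g) ≤ W) → W = ⊥ ∨ W = ⊤)
    (hprim : ∀ (t : ℕ) (D : Fin t → Submodule F V) (W : Submodule F V), 2 ≤ t → W ≠ ⊥ →
      (∀ i, ∃ g, D i = W.map (ρ g)) → iSupIndep D → iSup D = ⊤ →
      ¬ ∀ g, ∃ σ : Equiv.Perm (Fin t), ∀ i, (D i).map (ρ g) = D (σ i))
    {g : G} (hg : g ≠ 1) : 4 * finrank F (fix ρ g) ≤ 3 * finrank F V := by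
  obtain ⟨A, hAn, hA, h⟩ := exists_abelian_normal (G := G)
  have h0 : ∀ a ∈ A, a ≠ 1 → finrank F (fix ρ a) = 0 := fun a ha h1 => by
    rw [fix_eq_bot_of_primitive hinj hirr hprim hA ha h1, finrank_bot]
  rcases h g hg with h | ⟨x, h, h1⟩ | ⟨x, z, h, h1⟩
  · rw [h0 g h hg]; omega
  · have := two_mul_finrank_fix_le (ρ := ρ) g x
    rw [h0 _ h h1] at this
    omega
  · have h2 := two_mul_finrank_fix_le (ρ := ρ) g x
    have h3 := two_mul_finrank_fix_le (ρ := ρ) ⁅g, x⁆ z
    rw [h0 _ h h1] at h3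
    omega

end CL.PrimLin
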